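import Cfsg.Agent.H5.HeL.Pres
import Cfsg.Agent.H5.HeL.Chk0

set_option autoImplicit false
set_option maxRecDepth 100000
set_option Elab.async false

namespace Cfsg.H6.HeL

theorem ptOK : PtOK img 155 LS EQS := ptOK_of_chk fun p h1 h2 => by
  rw [← ptU_eq]
  exact (allR_range p0 (by norm_num : 0 + 155 = 155)) p h1 h2

theorem hrep : repOK 9 148080050112590643456 LS EQS D HeL.R = true := by decide +kernel

theorem rep : Good (evR img 155 9) 148080050112590643456 ∧ Rels (evR img 155 9) HeL.R ∧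
    IsAct (MonoidHom.id _) (evR img 155 9) img 155 9 := rep_sound ptOK hrep

theorem iv0 {G : Type*} [Group G] {φ : G →* Equiv.Perm ℕ} {ev : ℕ → G} (h : IsAct φ ev img 155 9) :
    orb φ (gen ev Ws) 1 = Set.Ico 1 43 :=
  ivl_sound h (by decide +kernel) (allR_range q0_0 (by norm_num : 1 + 42 = 43))

theorem iv1 {G : Type*} [Group G] {φ : G →* Equiv.Perm ℕ} {ev : ℕ → G} (h : IsAct φ ev img 155 9) :
    orb φ (gen ev Ws) 43 = Set.Ico 43 155 :=
  ivl_sound h (by decide +kernel) (allR_range q1_0 (by norm_num : 43 + 112 = 155))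


end Cfsg.H6.HeL
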